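import Cfsg.Agent.Lib.Helper13.SUSmall.Defs5d
import Cfsg.Agent.Lib.Helper88.SUSmall.E3cAa

set_option autoImplicit false

/-! # E3dA, core (helper23 for helper13's farm): `3^(1+2):Q_8` is not maximal in `SU_3(5)`,
from the normal form (E3dN3) and the data (E3dD), both taken as hypotheses. -/

namespace Cfsg.Agent.Lib.Helper23.SUSmall

open Cfsg Cfsg.Geo Matrix Cfsg.Agent.Lib.Helper5.SUAsch Cfsg.Agent.Lib.Helper13.SUSmall
open Cfsg.Agent.Lib.Helper88.SUSmall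
open scoped MatrixGroups

variable {F : Type*} [Field F]

/-- the stabiliser of the invariant set -/
def MR3 (R : Subgroup (GL (Fin 3) F)) : Subgroup (GL (Fin 3) F) where
  carrier := {g | ∀ w, condR R ((g : Matrix (Fin 3) (Fin 3) F) *ᵥ w) ↔ condR R w}
  mul_mem' {a b} ha hb := by
    intro w
    rw [Units.val_mul, ← Matrix.mulVec_mulVec, ha, hb]
  one_mem' := by intro w; simp
  inv_mem' {a} ha := by
    intro w
    rw [← ha, Matrix.mulVec_mulVec, ← Units.val_mul, mul_inv_cancel, Units.val_one,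
      Matrix.one_mulVec]

theorem cub3_conj (y r : GL (Fin 3) F) (hdet : (y : Matrix (Fin 3) (Fin 3) F).det = 1)
    (x : Fin 3 → F) :
    cub3 ((y * r * y⁻¹ : GL (Fin 3) F) : Matrix (Fin 3) (Fin 3) F)
      ((y : Matrix (Fin 3) (Fin 3) F) *ᵥ x) = cub3 (r : Matrix (Fin 3) (Fin 3) F) x := by
  unfold cub3
  have e : ∀ w : Fin 3 → F, ((y * r * y⁻¹ : GL (Fin 3) F) : Matrix (Fin 3) (Fin 3) F) *ᵥ
      ((y : Matrix (Fin 3) (Fin 3) F) *ᵥ w) = (y : Matrix (Fin 3) (Fin 3) F) *ᵥ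
        ((r : Matrix (Fin 3) (Fin 3) F) *ᵥ w) := by
    intro w
    rw [Matrix.mulVec_mulVec, Matrix.mulVec_mulVec, ← Units.val_mul, ← Units.val_mul]
    congr 2
    group
  rw [e, e, det3_mulVec, hdet, one_mul]

theorem condR_conj (y : GL (Fin 3) F) (hy : y ∈ SUg 3 F 5) (R R' : Subgroup (GL (Fin 3) F))
    (h : ∀ r, r ∈ R' ↔ y⁻¹ * r * y ∈ R) (x : Fin 3 → F) :
    condR R' ((y : Matrix (Fin 3) (Fin 3) F) *ᵥ x) ↔ condR R x := by
  have hU := mem_GU3 y (Subgroup.mem_inf.mp hy).1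
  have hdet : (y : Matrix (Fin 3) (Fin 3) F).det = 1 := (mem_sl3_iff y).mp (Subgroup.mem_inf.mp hy).2
  unfold condR
  rw [hU]
  constructor
  · rintro ⟨h0, h1⟩
    refine ⟨h0, fun r hr => ?_⟩
    have h2 := h1 (y * r * y⁻¹) ((h _).2 (by
      have : y⁻¹ * (y * r * y⁻¹) * y = r := by group
      rw [this]; exact hr))
    rwa [cub3_conj y r hdet] at h2
  · rintro ⟨h0, h1⟩
    refine ⟨h0, fun r hr => ?_⟩
    have h2 := h1 (y⁻¹ * r * y) ((h r).1 hr)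
    rw [← cub3_conj y (y⁻¹ * r * y) hdet] at h2
    have e : y * (y⁻¹ * r * y) * y⁻¹ = r := by group
    rwa [e] at h2

/-- E3dA from E3dN3 and E3dD -/
theorem extraspecial3_q5_not_max_of (R : Subgroup (GL (Fin 3) F))
    (hN3 : ∃ (T X Z : GL (Fin 3) F) (ω : F), ω ^ 2 + ω + 1 = 0 ∧ T ∈ SUg 3 F 5 ∧
      (X : Matrix (Fin 3) (Fin 3) F) = X3 ∧ (Z : Matrix (Fin 3) (Fin 3) F) = Z3 ω ∧
      R = (Subgroup.closure {X, Z}).map (MulAut.conj T).toMonoidHom)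
    (hD : ∀ (X Z : GL (Fin 3) F) (ω : F)
      (_ : ω ^ 2 + ω + 1 = 0) (_ : (X : Matrix (Fin 3) (Fin 3) F) = X3)
      (_ : (Z : Matrix (Fin 3) (Fin 3) F) = Z3 ω),
      ∃ g s : GL (Fin 3) F, g ∈ SUg 3 F 5 ∧
        (∀ x, condR (Subgroup.closure {X, Z}) ((g : Matrix (Fin 3) (Fin 3) F) *ᵥ x) ↔
          condR (Subgroup.closure {X, Z}) x) ∧
        g * X * g⁻¹ ∉ Subgroup.closure {X, Z} ∧ s ∈ SUg 3 F 5 ∧
        ∃ x, condR (Subgroup.closure {X, Z}) x ∧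
          ¬ condR (Subgroup.closure {X, Z}) ((s : Matrix (Fin 3) (Fin 3) F) *ᵥ x)) :
    ¬ IsMaximalIn (SUg 3 F 5) (subgroupNormalizer R ⊓ SUg 3 F 5) := by
  classical
  rintro ⟨-, hmax⟩
  obtain ⟨T, X, Z, ω, hω, hT, hX, hZ', hRe⟩ := hN3
  obtain ⟨g, s, hg, hgc, hgn, hs, x, hx, hsx⟩ := hD X Z ω hω hX hZ'
  have hXmem : X ∈ Subgroup.closure ({X, Z} : Set (GL (Fin 3) F)) :=
    Subgroup.subset_closure (by simp)
  generalize Subgroup.closure ({X, Z} : Set (GL (Fin 3) F)) = R0 at *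
  have hRmem : ∀ r, r ∈ R ↔ T⁻¹ * r * T ∈ R0 := by
    intro r
    rw [hRe, Subgroup.mem_map]
    constructor
    · rintro ⟨r0, hr0, rfl⟩
      have : T⁻¹ * ((MulAut.conj T).toMonoidHom r0) * T = r0 := by
        simp only [MulEquiv.coe_toMonoidHom, MulAut.conj_apply]
        group
      rw [this]; exact hr0
    · intro h
      refine ⟨_, h, ?_⟩
      simp only [MulEquiv.coe_toMonoidHom, MulAut.conj_apply]
      group
  have hTR : ∀ w, condR R ((T : Matrix (Fin 3) (Fin 3) F) *ᵥ w) ↔ condR R0 w :=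
    condR_conj T hT R0 R hRmem
  have hconj : ∀ (u : GL (Fin 3) F) (w : Fin 3 → F),
      ((T * u * T⁻¹ : GL (Fin 3) F) : Matrix (Fin 3) (Fin 3) F) *ᵥ
        ((T : Matrix (Fin 3) (Fin 3) F) *ᵥ w) =
      (T : Matrix (Fin 3) (Fin 3) F) *ᵥ ((u : Matrix (Fin 3) (Fin 3) F) *ᵥ w) := by
    intro u w
    rw [Matrix.mulVec_mulVec, Matrix.mulVec_mulVec, ← Units.val_mul, ← Units.val_mul]
    congr 2
    group
  have hTT : ∀ w : Fin 3 → F, (T : Matrix (Fin 3) (Fin 3) F) *ᵥ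
      (((T⁻¹ : GL (Fin 3) F) : Matrix (Fin 3) (Fin 3) F) *ᵥ w) = w := by
    intro w
    rw [Matrix.mulVec_mulVec, ← Units.val_mul, mul_inv_cancel, Units.val_one, Matrix.one_mulVec]
  have hle : subgroupNormalizer R ⊓ SUg 3 F 5 ≤ MR3 R ⊓ SUg 3 F 5 := by
    intro y hy
    obtain ⟨hy1, hy2⟩ := Subgroup.mem_inf.mp hy
    refine Subgroup.mem_inf.mpr ⟨?_, hy2⟩
    refine condR_conj y hy2 R R (fun r => ?_)
    have h1 := Subgroup.mem_normalizer_iff.1 (inv_mem hy1 : y⁻¹ ∈ Subgroup.normalizer (R : Set _)) r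
    rwa [inv_inv] at h1
  rcases hmax (MR3 R ⊓ SUg 3 F 5) hle inf_le_right with hM | hM
  · have hgM : T * g * T⁻¹ ∈ MR3 R ⊓ SUg 3 F 5 := by
      refine Subgroup.mem_inf.mpr ⟨?_, mul_mem (mul_mem hT hg) (inv_mem hT)⟩
      intro w
      rw [← hTT w, hconj, hTR, hTR, hgc]
    rw [hM] at hgM
    have hN : T * g * T⁻¹ ∈ Subgroup.normalizer (R : Set _) := (Subgroup.mem_inf.mp hgM).1
    have h1 := (Subgroup.mem_normalizer_iff.1 hN (T * X * T⁻¹)).1 ((hRmem _).2 (by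
      have : T⁻¹ * (T * X * T⁻¹) * T = X := by group
      rw [this]; exact hXmem))
    rw [hRmem] at h1
    apply hgn
    have e : T⁻¹ * (T * g * T⁻¹ * (T * X * T⁻¹) * (T * g * T⁻¹)⁻¹) * T = g * X * g⁻¹ := by group
    rwa [e] at h1
  · have hsM : T * s * T⁻¹ ∈ MR3 R ⊓ SUg 3 F 5 := by
      rw [hM]; exact mul_mem (mul_mem hT hs) (inv_mem hT)
    have h1 := (Subgroup.mem_inf.mp hsM).1 ((T : Matrix (Fin 3) (Fin 3) F) *ᵥ x)
    rw [hconj, hTR, hTR] at h1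
    exact hsx (h1.2 hx)

end Cfsg.Agent.Lib.Helper23.SUSmall
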