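import Cfsg.Agent.Lib.Helper23.SUSmall.E3dDm

/-! su_small piece E3dD, light version (helper23, after helper13): the list `Llit` is a group. -/

set_option autoImplicit false
set_option linter.unusedSectionVars false

namespace Cfsg.Agent.Lib.Helper23.SUSmall

open Cfsg Cfsg.Geo Matrix Cfsg.Agent.Lib.Helper5.SUAsch Cfsg.Agent.Lib.Helper86.SUSmall.E3c
open Cfsg.Agent.Lib.Helper13.SUSmall
open scoped MatrixGroups

namespace E3d

set_option maxRecDepth 100000 in
theorem F2aB : (Llit.all fun A => idx.any fun p => decide (A = word w1 p)) = true := by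
  decide +kernel

set_option maxRecDepth 100000 in
theorem F2bB : (Llit.all fun A => idx.any fun p => decide (A = word w2 p)) = true := by
  decide +kernel

set_option maxRecDepth 100000 in
theorem F3B : (Llit.all fun A => Llit.all fun B => decide (A * B ∈ Llit)) = true := by
  decide +kernel

set_option maxRecDepth 100000 in
theorem F4B : (Llit.all fun A => Llit.any fun B => decide (B * A = 1)) = true := by
  decide +kernel

theorem F2a : ∀ A ∈ Llit, ∃ p ∈ idx, A = word w1 p := by
  intro A hA
  obtain ⟨p, hp, h⟩ := List.any_eq_true.1 (List.all_eq_true.1 F2aB A hA)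
  exact ⟨p, hp, of_decide_eq_true h⟩

theorem F2b : ∀ A ∈ Llit, ∃ p ∈ idx, A = word w2 p := by
  intro A hA
  obtain ⟨p, hp, h⟩ := List.any_eq_true.1 (List.all_eq_true.1 F2bB A hA)
  exact ⟨p, hp, of_decide_eq_true h⟩

theorem F3 : ∀ A ∈ Llit, ∀ B ∈ Llit, A * B ∈ Llit := fun A hA B hB =>
  of_decide_eq_true (List.all_eq_true.1 (List.all_eq_true.1 F3B A hA) B hB)

theorem F4 : ∀ A ∈ Llit, ∃ B ∈ Llit, B * A = 1 := by
  intro A hA
  obtain ⟨B, hB, h⟩ := List.any_eq_true.1 (List.all_eq_true.1 F4B A hA)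
  exact ⟨B, hB, of_decide_eq_true h⟩

end E3d

end Cfsg.Agent.Lib.Helper23.SUSmall
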