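import Cfsg.Agent.Lib.Helper23.SUSmall.E3dDn
import Cfsg.Agent.Lib.Helper23.SUSmall.E3dDf

/-! su_small piece E3dD, light version (helper23; the proof is helper13's, with the heavy kernel
checks replaced by the ones of `E3dDn`, `E3dDf`): explicit data for `3.M_10 < SU_3(5)`. -/

set_option autoImplicit false
set_option linter.unusedSectionVars false

namespace Cfsg.Agent.Lib.Helper23.SUSmall

open Cfsg Cfsg.Geo Matrix Cfsg.Agent.Lib.Helper5.SUAsch Cfsg.Agent.Lib.Helper86.SUSmall.E3c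
open Cfsg.Agent.Lib.Helper13.SUSmall
open scoped MatrixGroups

namespace E3d

theorem pow24 : ∀ k : K25, k ≠ 0 → k ^ 24 = 1 := by decide +kernel

theorem cubm_smul (A : M3) (k a b c : K25) :
    cubm A (k * a) (k * b) (k * c) = k ^ 3 * cubm A a b c := by
  unfold cubm
  simp only [lin_smul, d3_smul]

theorem Q_smul {K : Type*} [Field K] (k y : K) (hk : k ≠ 0) (h24 : k ^ 24 = 1) :
    (k ^ 3 * y) ^ 10 = (k ^ 3 * y) ^ 2 ↔ y ^ 10 = y ^ 2 := by
  have h6 : k ^ 6 ≠ 0 := pow_ne_zero _ hk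
  have e1 : (k ^ 3 * y) ^ 10 = k ^ 6 * y ^ 10 := by
    have : (k ^ 3 * y) ^ 10 = k ^ 24 * (k ^ 6 * y ^ 10) := by ring
    rw [this, h24, one_mul]
  have e2 : (k ^ 3 * y) ^ 2 = k ^ 6 * y ^ 2 := by ring
  rw [e1, e2]
  exact ⟨fun h => mul_left_cancel₀ h6 h, fun h => by rw [h]⟩

theorem C27_smul (k a b c : K25) (hk : k ≠ 0) : C27 (k * a) (k * b) (k * c) ↔ C27 a b c := by
  unfold C27
  have h6 : k ^ 6 ≠ 0 := pow_ne_zero _ hk
  simp only [cubm_smul, hf3_smul, Q_smul k _ hk (pow24 k hk)]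
  constructor
  · rintro ⟨h0, h1⟩
    exact ⟨(mul_ne_zero_iff.1 h0).2, h1⟩
  · rintro ⟨h0, h1⟩
    exact ⟨mul_ne_zero h6 h0, h1⟩

theorem C27_g (a b c : K25) :
    C27 (lin Gd 0 a b c) (lin Gd 1 a b c) (lin Gd 2 a b c) ↔ C27 a b c := by
  have key : ∀ (k a' b' c' : K25), k ≠ 0 →
      (C27 (lin Gd 0 a' b' c') (lin Gd 1 a' b' c') (lin Gd 2 a' b' c') ↔ C27 a' b' c') →
      (C27 (lin Gd 0 (k * a') (k * b') (k * c')) (lin Gd 1 (k * a') (k * b') (k * c'))
        (lin Gd 2 (k * a') (k * b') (k * c')) ↔ C27 (k * a') (k * b') (k * c')) := by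
    intro k a' b' c' hk h
    rw [lin_smul, lin_smul, lin_smul, C27_smul _ _ _ _ hk, C27_smul _ _ _ _ hk, h]
  by_cases ha : a = 0
  · by_cases hb : b = 0
    · by_cases hc : c = 0
      · subst ha hb hc; exact model4
      · have := key c 0 0 1 hc model3
        rw [mul_zero, mul_one] at this
        subst ha hb; exact this
    · have := key b 0 1 (b⁻¹ * c) hb (model2 _)
      rw [mul_zero, mul_one, mul_inv_cancel_left₀ hb] at this
      subst ha; exact this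
  · have := key a 1 (a⁻¹ * b) (a⁻¹ * c) ha (model1 _ _)
    rw [mul_one, mul_inv_cancel_left₀ ha, mul_inv_cancel_left₀ ha] at this
    exact this

section transfer

variable {F : Type*} [Field F] [Fintype F] (φ : K25 →+* F)

theorem cub3_map (A : M3) (x : Fin 3 → K25) :
    cub3 (Ph φ A) (fun i => φ (x i)) = φ (cubm A (x 0) (x 1) (x 2)) := by
  unfold cub3
  rw [Ph_mulVec, Ph_mulVec, det3_map, det3_eq_d3]
  simp only [mulVec_eq_lin]
  rfl

theorem Ph_Xm : Ph φ Xm = (X3 : Matrix (Fin 3) (Fin 3) F) := by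
  have h0 : φ (⟨0, 0⟩ : K25) = 0 := map_zero φ
  have h1 : φ (⟨1, 0⟩ : K25) = 1 := map_one φ
  ext i j
  fin_cases i <;> fin_cases j <;> simp [Ph_apply, Xm, X3, h0, h1]

theorem Ph_Zm (w : K25) : Ph φ (Zm w) = (Z3 (φ w) : Matrix (Fin 3) (Fin 3) F) := by
  have h0 : φ (⟨0, 0⟩ : K25) = 0 := map_zero φ
  have h1 : φ (⟨1, 0⟩ : K25) = 1 := map_one φ
  ext i j
  fin_cases i <;> fin_cases j <;> simp [Ph_apply, Zm, Z3, h0, h1]

end transfer

end E3d

open E3d in
/-- E3dD -/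
theorem e3d_data {F : Type*} [Field F] [Fintype F] (hF : Fintype.card F = 5 ^ 2)
    (X Z : GL (Fin 3) F) (ω : F)
    (hω : ω ^ 2 + ω + 1 = 0) (hX : (X : Matrix (Fin 3) (Fin 3) F) = X3)
    (hZ : (Z : Matrix (Fin 3) (Fin 3) F) = Z3 ω) :
    ∃ g s : GL (Fin 3) F, g ∈ SUg 3 F 5 ∧
      (∀ x, condR (Subgroup.closure {X, Z}) ((g : Matrix (Fin 3) (Fin 3) F) *ᵥ x) ↔
        condR (Subgroup.closure {X, Z}) x) ∧
      g * X * g⁻¹ ∉ Subgroup.closure {X, Z} ∧ s ∈ SUg 3 F 5 ∧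
      ∃ x, condR (Subgroup.closure {X, Z}) x ∧
        ¬ condR (Subgroup.closure {X, Z}) ((s : Matrix (Fin 3) (Fin 3) F) *ᵥ x) := by
  have hcard : Fintype.card K25 = Fintype.card F := by rw [card_K25, hF]; norm_num
  let ε : K25 ≃+* F := FiniteField.ringEquivOfCardEq hcard
  let φ : K25 →+* F := ε.toRingHom
  have hinj := Ph_injective φ
  obtain ⟨w, hw⟩ : ∃ w : K25, φ w = ω := ⟨ε.symm ω, ε.apply_symm_apply ω⟩
  have hw0 : w ^ 2 + w + 1 = 0 := by
    apply φ.injective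
    rw [map_add, map_add, map_pow, hw, map_one, map_zero, hω]
  have hXv : (X : Matrix (Fin 3) (Fin 3) F) = Ph φ Xm := by rw [hX, Ph_Xm]
  have hZv : (Z : Matrix (Fin 3) (Fin 3) F) = Ph φ (Zm w) := by rw [hZ, Ph_Zm, hw]
  have hF2 : ∀ A ∈ Llit, ∃ p ∈ idx, A = word w p := by
    rcases roots w hw0 with rfl | rfl
    · exact F2a
    · exact F2b
  have hF7 : Zm w ∈ Llit := by
    rcases roots w hw0 with rfl | rfl
    · exact F7a
    · exact F7b
  -- elements of the closure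
  have hcl : ∀ r ∈ Subgroup.closure ({X, Z} : Set (GL (Fin 3) F)),
      ∃ A ∈ Llit, (r : Matrix (Fin 3) (Fin 3) F) = Ph φ A := by
    intro r hr
    induction hr using Subgroup.closure_induction with
    | mem y hy =>
      rcases hy with rfl | hy
      · exact ⟨Xm, F6, hXv⟩
      · rw [Set.mem_singleton_iff] at hy
        subst hy
        exact ⟨Zm w, hF7, hZv⟩
    | one => exact ⟨1, F5, by rw [map_one]; rfl⟩
    | mul a b _ _ ha hb =>
      obtain ⟨A, hA, ha⟩ := ha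
      obtain ⟨B, hB, hb⟩ := hb
      exact ⟨A * B, F3 A hA B hB, by rw [Units.val_mul, ha, hb, map_mul]⟩
    | inv a _ ha =>
      obtain ⟨A, hA, ha⟩ := ha
      obtain ⟨B, hB, hBA⟩ := F4 A hA
      refine ⟨B, hB, ?_⟩
      have h1 : Ph φ B * (a : Matrix (Fin 3) (Fin 3) F) = 1 := by
        rw [ha, ← map_mul, hBA, map_one]
      calc ((a⁻¹ : GL (Fin 3) F) : Matrix (Fin 3) (Fin 3) F)
          = (Ph φ B * (a : Matrix (Fin 3) (Fin 3) F)) *
            ((a⁻¹ : GL (Fin 3) F) : Matrix (Fin 3) (Fin 3) F) := by rw [h1, one_mul]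
        _ = Ph φ B := by
            rw [mul_assoc, ← Units.val_mul, mul_inv_cancel, Units.val_one, mul_one]
  have hcl' : ∀ A ∈ Llit, ∃ r ∈ Subgroup.closure ({X, Z} : Set (GL (Fin 3) F)),
      (r : Matrix (Fin 3) (Fin 3) F) = Ph φ A := by
    intro A hA
    obtain ⟨p, -, rfl⟩ := hF2 A hA
    have hXm : X ∈ Subgroup.closure ({X, Z} : Set (GL (Fin 3) F)) :=
      Subgroup.subset_closure (by simp)
    have hZm : Z ∈ Subgroup.closure ({X, Z} : Set (GL (Fin 3) F)) :=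
      Subgroup.subset_closure (by simp)
    refine ⟨X ^ p.1 * Z ^ p.2.1 * (X * Z * X ^ 2 * Z ^ 2) ^ p.2.2, ?_, ?_⟩
    · exact mul_mem (mul_mem (pow_mem hXm _) (pow_mem hZm _))
        (pow_mem (mul_mem (mul_mem (mul_mem hXm hZm) (pow_mem hXm _)) (pow_mem hZm _)) _)
    · simp only [Units.val_mul, Units.val_pow_eq_pow_val, hXv, hZv, word, map_mul, map_pow]
  have hcond : ∀ x : Fin 3 → K25, condR (Subgroup.closure {X, Z}) (fun i => φ (x i)) ↔
      C27 (x 0) (x 1) (x 2) := by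
    intro x
    unfold condR C27
    have key0 : hermForm 3 F 5 (fun i => φ (x i)) (fun i => φ (x i)) ≠ 0
        ↔ hf3 (x 0) (x 1) (x 2) (x 0) (x 1) (x 2) ≠ 0 := by
      rw [herm_map, herm_eq_hf3, ← map_zero φ]
      exact φ.injective.ne_iff
    rw [key0]
    refine and_congr_right fun _ => ?_
    constructor
    · intro h A hA
      obtain ⟨r, hr, hrA⟩ := hcl' A hA
      have := h r hr
      rw [hrA, cub3_map, ← map_pow, ← map_pow] at this
      exact φ.injective this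
    · intro h r hr
      obtain ⟨A, hA, hrA⟩ := hcl r hr
      rw [hrA, cub3_map, ← map_pow, ← map_pow, h A hA]
  have hsurj : ∀ x : Fin 3 → F, ∃ a : Fin 3 → K25, x = fun i => φ (a i) := by
    intro x
    refine ⟨fun i => ε.symm (x i), ?_⟩
    funext i
    exact (ε.apply_symm_apply (x i)).symm
  refine ⟨mkGL φ Gd Gi Gd_Gi Gi_Gd, mkGL φ Gm Gm Gm_Gm Gm_Gm,
    mkGL_mem_SUg φ hF _ _ _ _ Gd_unitary Gd_det, ?_, ?_,
    mkGL_mem_SUg φ hF _ _ _ _ Gm_unitary Gm_det, ?_⟩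
  · intro x
    obtain ⟨a, rfl⟩ := hsurj x
    show condR _ (Ph φ Gd *ᵥ _) ↔ _
    rw [Ph_mulVec, hcond, hcond]
    simp only [mulVec_eq_lin]
    exact C27_g _ _ _
  · intro h
    obtain ⟨A, hA, hrA⟩ := hcl _ h
    have h2 : Ph φ (Gd * Xm * Gi) = Ph φ A := by
      rw [← hrA, map_mul, map_mul, Units.val_mul, Units.val_mul, hXv]
      rfl
    exact Gd_not (by rw [hinj h2]; exact hA)
  · refine ⟨fun i => φ ((![0, 1, -1] : Fin 3 → K25) i), ?_, ?_⟩
    · rw [hcond]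
      exact model_x
    · show ¬ condR _ (Ph φ Gm *ᵥ _)
      rw [Ph_mulVec, hcond]
      simp only [mulVec_eq_lin]
      exact model_sx

end Cfsg.Agent.Lib.Helper23.SUSmall
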