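import Cfsg.Agent.Lib.Helper23.SUSmall.E3dN3
import Cfsg.Agent.Lib.Helper23.SUSmall.E3dAa
import Cfsg.Agent.Lib.Helper23.SUSmall.E3dD2

set_option autoImplicit false

/-! # E3dA (helper23 for helper13's farm): `3^(1+2):Q_8` is not maximal in `SU_3(5)` -/

namespace Cfsg.Agent.Lib.Helper23.SUSmall

open Cfsg Cfsg.Geo Matrix Cfsg.Agent.Lib.Helper5.SUAsch Cfsg.Agent.Lib.Helper13.SUSmall
open scoped MatrixGroups

variable {F : Type*} [Field F] [Fintype F]

/-- E3dA -/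
theorem extraspecial3_q5_not_max (hF : Fintype.card F = 5 ^ 2) (R : Subgroup (GL (Fin 3) F))
    (hR : IsSymplecticTypeGroup 3 R) (hirr : ActsAbsolutelyIrreducibly (matrixSet R))
    (hsim : R ≤ similarityGroup (hermForm 3 F 5)) (hcard : Nat.card R = 27)
    (hZ : Nat.card (Subgroup.center R) = 3) :
    ¬ IsMaximalIn (SUg 3 F 5) (subgroupNormalizer R ⊓ SUg 3 F 5) :=
  extraspecial3_q5_not_max_of R (e3d_normal hF R hR hirr hsim hcard hZ)
    (Cfsg.Agent.Lib.Helper23.SUSmall.e3d_data hF)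

end Cfsg.Agent.Lib.Helper23.SUSmall
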