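import Cfsg.Agent.Lib.Helper23.SUSmall.E3dDm

/-! su_small piece E3dD, light version (helper23): arithmetic of `K25` on natural number codes,
so that the kernel evaluates the big checks with its fast arithmetic on numerals. -/

set_option autoImplicit false
set_option linter.unusedSectionVars false

namespace Cfsg.Agent.Lib.Helper23.SUSmall

open Cfsg Cfsg.Geo Matrix Cfsg.Agent.Lib.Helper5.SUAsch Cfsg.Agent.Lib.Helper86.SUSmall.E3c
open Cfsg.Agent.Lib.Helper13.SUSmall
open scoped MatrixGroups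

namespace E3d

/-- the code of an element of `K25` -/
def enc (x : K25) : ℕ := Nat.add (ZMod.val x.re) (Nat.mul 5 (ZMod.val x.im))

def addN (n m : ℕ) : ℕ :=
  Nat.add (Nat.mod (Nat.add (Nat.mod n 5) (Nat.mod m 5)) 5)
    (Nat.mul 5 (Nat.mod (Nat.add (Nat.div n 5) (Nat.div m 5)) 5))

def subN (n m : ℕ) : ℕ :=
  Nat.add (Nat.mod (Nat.sub (Nat.add (Nat.mod n 5) 5) (Nat.mod m 5)) 5)
    (Nat.mul 5 (Nat.mod (Nat.sub (Nat.add (Nat.div n 5) 5) (Nat.div m 5)) 5))

def mulN (n m : ℕ) : ℕ :=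
  Nat.add (Nat.mod (Nat.add (Nat.mul (Nat.mod n 5) (Nat.mod m 5))
      (Nat.mul 2 (Nat.mul (Nat.div n 5) (Nat.div m 5)))) 5)
    (Nat.mul 5 (Nat.mod (Nat.add (Nat.mul (Nat.mod n 5) (Nat.div m 5))
      (Nat.mul (Nat.div n 5) (Nat.mod m 5))) 5))

def powN (n : ℕ) : ℕ → ℕ
  | 0 => 1
  | k + 1 => mulN (powN n k) n

theorem enc_lt : ∀ x : K25, enc x < 25 := by decide +kernel
theorem enc_inj : ∀ x y : K25, enc x = enc y → x = y := by decide +kernel
theorem enc_add : ∀ x y : K25, enc (x + y) = addN (enc x) (enc y) := by decide +kernel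
theorem enc_sub : ∀ x y : K25, enc (x - y) = subN (enc x) (enc y) := by decide +kernel
theorem enc_mul : ∀ x y : K25, enc (x * y) = mulN (enc x) (enc y) := by decide +kernel
theorem enc_zero : enc 0 = 0 := by decide +kernel
theorem enc_one : enc 1 = 1 := by decide +kernel
theorem enc_neg_one : enc (-1) = 4 := by decide +kernel

theorem enc_pow (x : K25) (k : ℕ) : enc (x ^ k) = powN (enc x) k := by
  induction k with
  | zero => rw [pow_zero, enc_one]; rfl
  | succ k ih => rw [pow_succ, enc_mul, ih]; rfl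

theorem enc_eq_iff (x y : K25) : x = y ↔ enc x = enc y :=
  ⟨fun h => by rw [h], enc_inj x y⟩

def linN (M : M3) (i : Fin 3) (a b c : ℕ) : ℕ :=
  addN (addN (mulN (enc (M i 0)) a) (mulN (enc (M i 1)) b)) (mulN (enc (M i 2)) c)

theorem enc_lin (M : M3) (i : Fin 3) (a b c : K25) :
    enc (lin M i a b c) = linN M i (enc a) (enc b) (enc c) := by
  unfold lin linN
  rw [enc_add, enc_add, enc_mul, enc_mul, enc_mul]

def hf3N (a b c a' b' c' : ℕ) : ℕ :=
  addN (addN (mulN a (powN a' 5)) (mulN b (powN b' 5))) (mulN c (powN c' 5))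

theorem enc_hf3 (a b c a' b' c' : K25) :
    enc (hf3 a b c a' b' c') = hf3N (enc a) (enc b) (enc c) (enc a') (enc b') (enc c') := by
  unfold hf3 hf3N
  rw [enc_add, enc_add, enc_mul, enc_mul, enc_mul, enc_pow, enc_pow, enc_pow]

def d3N (x0 x1 x2 y0 y1 y2 z0 z1 z2 : ℕ) : ℕ :=
  subN (addN (addN (subN (subN (mulN (mulN x0 y1) z2) (mulN (mulN x0 y2) z1))
    (mulN (mulN x1 y0) z2)) (mulN (mulN x1 y2) z0)) (mulN (mulN x2 y0) z1)) (mulN (mulN x2 y1) z0)

theorem enc_d3 (x0 x1 x2 y0 y1 y2 z0 z1 z2 : K25) :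
    enc (d3 x0 x1 x2 y0 y1 y2 z0 z1 z2) = d3N (enc x0) (enc x1) (enc x2) (enc y0) (enc y1) (enc y2)
      (enc z0) (enc z1) (enc z2) := by
  unfold d3 d3N
  simp only [enc_add, enc_sub, enc_mul]

def cubmN (A : M3) (a b c : ℕ) : ℕ :=
  d3N a b c (linN A 0 a b c) (linN A 1 a b c) (linN A 2 a b c)
    (linN A 0 (linN A 0 a b c) (linN A 1 a b c) (linN A 2 a b c))
    (linN A 1 (linN A 0 a b c) (linN A 1 a b c) (linN A 2 a b c))
    (linN A 2 (linN A 0 a b c) (linN A 1 a b c) (linN A 2 a b c))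

theorem enc_cubm (A : M3) (a b c : K25) :
    enc (cubm A a b c) = cubmN A (enc a) (enc b) (enc c) := by
  unfold cubm cubmN
  simp only [enc_d3, enc_lin]

def C27B (a b c : ℕ) : Bool :=
  (!(Nat.beq (hf3N a b c a b c) 0)) &&
    Llit.all fun A => Nat.beq (powN (cubmN A a b c) 10) (powN (cubmN A a b c) 2)

theorem C27_iff (a b c : K25) : C27 a b c ↔ C27B (enc a) (enc b) (enc c) = true := by
  unfold C27 C27B
  rw [Bool.and_eq_true, Bool.not_eq_true', List.all_eq_true, Ne, enc_eq_iff, enc_hf3, enc_zero,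
    ← Bool.not_eq_true, Nat.beq_eq]
  refine and_congr_right fun _ => ?_
  refine forall_congr' fun A => forall_congr' fun _ => ?_
  rw [enc_eq_iff, enc_pow, enc_pow, enc_cubm, Nat.beq_eq]

/-- the check at one point -/
def chkB (a b c : ℕ) : Bool :=
  C27B (linN Gd 0 a b c) (linN Gd 1 a b c) (linN Gd 2 a b c) == C27B a b c

theorem C27_g_of_chk (a b c : K25) (h : chkB (enc a) (enc b) (enc c) = true) :
    C27 (lin Gd 0 a b c) (lin Gd 1 a b c) (lin Gd 2 a b c) ↔ C27 a b c := by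
  unfold chkB at h
  rw [C27_iff, C27_iff, enc_lin, enc_lin, enc_lin, beq_iff_eq.1 h]

set_option maxRecDepth 100000 in
theorem chk1 : ((List.range 25).all fun m => (List.range 25).all fun k => chkB 1 m k) = true := by
  decide +kernel

set_option maxRecDepth 100000 in
theorem chk2 : ((List.range 25).all fun k => chkB 0 1 k) = true := by
  decide +kernel

theorem chk3 : chkB 0 0 1 = true := by decide +kernel

theorem chk4 : chkB 0 0 0 = true := by decide +kernel

theorem model1 (b c : K25) :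
    C27 (lin Gd 0 1 b c) (lin Gd 1 1 b c) (lin Gd 2 1 b c) ↔ C27 1 b c := by
  apply C27_g_of_chk
  rw [enc_one]
  exact List.all_eq_true.1 (List.all_eq_true.1 chk1 _ (List.mem_range.2 (enc_lt b))) _
    (List.mem_range.2 (enc_lt c))

theorem model2 (c : K25) :
    C27 (lin Gd 0 0 1 c) (lin Gd 1 0 1 c) (lin Gd 2 0 1 c) ↔ C27 0 1 c := by
  apply C27_g_of_chk
  rw [enc_one, enc_zero]
  exact List.all_eq_true.1 chk2 _ (List.mem_range.2 (enc_lt c))

theorem model3 : C27 (lin Gd 0 0 0 1) (lin Gd 1 0 0 1) (lin Gd 2 0 0 1) ↔ C27 0 0 1 := by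
  apply C27_g_of_chk
  rw [enc_one, enc_zero]
  exact chk3

theorem model4 : C27 (lin Gd 0 0 0 0) (lin Gd 1 0 0 0) (lin Gd 2 0 0 0) ↔ C27 0 0 0 := by
  apply C27_g_of_chk
  rw [enc_zero]
  exact chk4

theorem chk_x : C27B 0 1 4 = true := by decide +kernel

theorem model_x : C27 0 1 (-1) := by
  rw [C27_iff, enc_zero, enc_one, enc_neg_one]
  exact chk_x

theorem chk_sx : C27B (linN Gm 0 0 1 4) (linN Gm 1 0 1 4) (linN Gm 2 0 1 4) = false := by
  decide +kernel

theorem model_sx : ¬ C27 (lin Gm 0 0 1 (-1)) (lin Gm 1 0 1 (-1)) (lin Gm 2 0 1 (-1)) := by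
  rw [C27_iff, enc_lin, enc_lin, enc_lin, enc_zero, enc_one, enc_neg_one, chk_sx]
  exact Bool.false_ne_true

end E3d

end Cfsg.Agent.Lib.Helper23.SUSmall
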