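import Cfsg.Agent.Lib.Helper13.SUSmall.Defs5d

set_option autoImplicit false

/-! # E3dN1 (helper23 for helper13's farm): group theory of `3^(1+2)` inside `GL_3(25)` -/

namespace Cfsg.Agent.Lib.Helper23.SUSmall

open Cfsg Cfsg.Geo Matrix Cfsg.Agent.Lib.Helper5.SUAsch Cfsg.Agent.Lib.Helper13.SUSmall
open scoped MatrixGroups

theorem N1_comm_of_card {S : Type*} [Group S] {k : ℕ} (hk : k ≤ 2) (h : Nat.card S = 3 ^ k)
    (a b : S) : a * b = b * a := by
  have : Fact (Nat.Prime 3) := ⟨Nat.prime_three⟩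
  interval_cases k
  · have : Subsingleton S := (Nat.card_eq_one_iff_unique.1 (by simpa using h)).1
    rw [Subsingleton.elim a b]
  · have : IsCyclic S := isCyclic_of_prime_card (p := 3) (by simpa using h)
    letI := IsCyclic.commGroup (α := S)
    exact mul_comm a b
  · exact IsPGroup.commutative_of_card_eq_prime_sq (p := 3) h a b

variable {F : Type*} [Field F] [Fintype F]

theorem N1_center_scalar (R : Subgroup (GL (Fin 3) F))
    (hirr : ActsAbsolutelyIrreducibly (matrixSet R)) (w : R) (hw : w ∈ Subgroup.center R) :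
    ∃ c : F, ((w : GL (Fin 3) F) : Matrix (Fin 3) (Fin 3) F) = c • 1 := by
  apply hirr.2
  rintro s ⟨g, hg, rfl⟩
  have h1 := Subgroup.mem_center_iff.1 hw ⟨g, hg⟩
  have h2 := congrArg (fun t : R => ((t : GL (Fin 3) F) : Matrix (Fin 3) (Fin 3) F)) h1
  simpa using h2.symm

theorem N1_cube_of_scalar {g : GL (Fin 3) F} (hg : g ^ 3 = 1) {c : F}
    (hc : (g : Matrix (Fin 3) (Fin 3) F) = c • 1) : c ^ 3 = 1 := by
  have h1 : (g : Matrix (Fin 3) (Fin 3) F) ^ 3 = 1 := by
    rw [← Units.val_pow_eq_pow_val, hg, Units.val_one]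
  rw [hc, smul_pow, one_pow] at h1
  have h2 := congrFun (congrFun h1 0) 0
  simpa using h2

/-- E3dN1 -/
theorem e3d_group (hF : Fintype.card F = 5 ^ 2) (R : Subgroup (GL (Fin 3) F))
    (hR : IsSymplecticTypeGroup 3 R) (hirr : ActsAbsolutelyIrreducibly (matrixSet R))
    (hsim : R ≤ similarityGroup (hermForm 3 F 5)) (hcard : Nat.card R = 27)
    (hZ : Nat.card (Subgroup.center R) = 3) :
    R ≤ GU 3 F 5 ∧ (∀ r ∈ R, r ^ 3 = 1) ∧ (∃ x ∈ R, ∃ z ∈ R, x * z ≠ z * x) ∧
      (∀ x ∈ R, ∀ z ∈ R, x * z ≠ z * x → Subgroup.closure {x, z} = R) ∧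
      (∀ x ∈ R, ∀ z ∈ R, ∃ c : F, c ^ 3 = 1 ∧
        (x : Matrix (Fin 3) (Fin 3) F) * (z : Matrix (Fin 3) (Fin 3) F) =
          c • ((z : Matrix (Fin 3) (Fin 3) F) * (x : Matrix (Fin 3) (Fin 3) F))) ∧
      (∀ c : F, c ^ 3 = 1 → ∀ r ∈ R, ∃ r' ∈ R,
        (r' : Matrix (Fin 3) (Fin 3) F) = c • (r : Matrix (Fin 3) (Fin 3) F)) := by
  classical
  have : Fact (Nat.Prime 3) := ⟨Nat.prime_three⟩
  have hB : ∀ r ∈ R, r ^ 3 = 1 := by
    intro r hr
    have h1 : (⟨r, hr⟩ : R) ^ Monoid.exponent R = 1 := Monoid.pow_exponent_eq_one _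
    rw [hR.exponent_eq] at h1
    have h2 := congrArg Subtype.val h1
    simpa using h2
  have h25 : ∀ w : F, w ^ 25 = w := by
    intro w
    have := FiniteField.pow_card w
    rwa [hF] at this
  refine ⟨?_, hB, ?_, ?_, ?_, ?_⟩
  · -- R ≤ GU
    intro r hr
    obtain ⟨μ, hμ⟩ := hsim hr
    have he : hermForm 3 F 5 (Pi.single 0 1) (Pi.single 0 1) = 1 := by
      simp [hermForm, Fin.sum_univ_three]
    have h3 : (μ : F) ^ 3 = 1 := by
      have h1 : ((r : Matrix (Fin 3) (Fin 3) F) * ((r : Matrix (Fin 3) (Fin 3) F) *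
          (r : Matrix (Fin 3) (Fin 3) F))) = 1 := by
        have := hB r hr
        have h2 : (r : Matrix (Fin 3) (Fin 3) F) ^ 3 = 1 := by
          rw [← Units.val_pow_eq_pow_val, this, Units.val_one]
        rw [← h2]; noncomm_ring
      have h2 : hermForm 3 F 5 ((r : Matrix (Fin 3) (Fin 3) F) *ᵥ
          ((r : Matrix (Fin 3) (Fin 3) F) *ᵥ ((r : Matrix (Fin 3) (Fin 3) F) *ᵥ
          Pi.single 0 1))) ((r : Matrix (Fin 3) (Fin 3) F) *ᵥ
          ((r : Matrix (Fin 3) (Fin 3) F) *ᵥ ((r : Matrix (Fin 3) (Fin 3) F) *ᵥ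
          Pi.single 0 1))) = (μ : F) * ((μ : F) * ((μ : F) * 1)) := by
        rw [hμ, hμ, hμ, he]
      simp only [Matrix.mulVec_mulVec, h1, Matrix.one_mulVec, he] at h2
      rw [h2]; ring
    have h5 : (μ : F) ^ 5 = μ := by
      have h1 := hμ (Pi.single 0 1) (Pi.single 0 1)
      rw [he, mul_one] at h1
      rw [← h1]
      simp only [hermForm, Fin.sum_univ_three]
      have hch : CharP F 5 := by
        obtain ⟨p, hp⟩ := CharP.exists F
        have hpp : p.Prime := by
          have := CharP.char_is_prime F p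
          exact this
        have hd : p ∣ 5 ^ 2 := by
          rw [← hF]
          have : ((Fintype.card F : ℕ) : F) = 0 := Nat.cast_card_eq_zero F
          exact (CharP.cast_eq_zero_iff F p _).1 this
        have := (Nat.prime_dvd_prime_iff_eq hpp Nat.prime_five).1 (hpp.dvd_of_dvd_pow hd)
        rw [← this]; exact hp
      have : Fact (Nat.Prime 5) := ⟨Nat.prime_five⟩
      rw [add_pow_char, add_pow_char]
      have key : ∀ w : F, (w * w ^ 5) ^ 5 = w * w ^ 5 := by
        intro w
        have : (w * w ^ 5) ^ 5 = w ^ 5 * w ^ 25 := by ring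
        rw [this, h25]; ring
      rw [key, key, key]
    have h1 : (μ : F) = 1 := by
      have hne : (μ : F) ≠ 0 := μ.ne_zero
      have h4 : (μ : F) ^ 4 = 1 := by
        have : (μ : F) * ((μ : F) ^ 4 - 1) = 0 := by
          have e : (μ : F) * ((μ : F) ^ 4 - 1) = (μ : F) ^ 5 - μ := by ring
          rw [e, h5, sub_self]
        rcases mul_eq_zero.1 this with h | h
        · exact absurd h hne
        · exact sub_eq_zero.1 h
      have : (μ : F) ^ 4 = (μ : F) ^ 3 * μ := by ring
      rw [h3, one_mul] at this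
      rw [← this, h4]
    intro u v
    have := hμ u v
    rw [h1, one_mul] at this
    exact this
  · -- non commutative
    by_contra hcon
    push Not at hcon
    have : Subgroup.center R = ⊤ := by
      rw [eq_top_iff]
      intro w _
      rw [Subgroup.mem_center_iff]
      intro g
      exact Subtype.ext (hcon g g.2 w w.2)
    rw [this, Subgroup.card_top, hcard] at hZ
    omega
  · -- generation
    intro x hx z hz hxz
    have hle : Subgroup.closure {x, z} ≤ R := by
      rw [Subgroup.closure_le]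
      rintro y (rfl | rfl)
      · exact hx
      · exact hz
    have hdvd : Nat.card (Subgroup.closure {x, z} : Subgroup (GL (Fin 3) F)) ∣ 3 ^ 3 := by
      have := Subgroup.card_dvd_of_le hle
      rwa [hcard] at this
    obtain ⟨k, hk, hk'⟩ := (Nat.dvd_prime_pow Nat.prime_three).1 hdvd
    have hk3 : k = 3 := by
      by_contra hne
      have hk2 : k ≤ 2 := by omega
      have h1 := N1_comm_of_card hk2 hk'
        (⟨x, Subgroup.subset_closure (by simp)⟩ : (Subgroup.closure {x, z} : Subgroup (GL (Fin 3) F)))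
        ⟨z, Subgroup.subset_closure (by simp)⟩
      exact hxz (congrArg Subtype.val h1)
    apply Subgroup.eq_of_le_of_card_ge hle
    rw [hcard, hk', hk3]
    norm_num
  · -- commutators are scalars
    intro x hx z hz
    have hq : Nat.card (R ⧸ Subgroup.center R) = 3 ^ 2 := by
      have := Subgroup.card_eq_card_quotient_mul_card_subgroup (Subgroup.center R)
      rw [hcard, hZ] at this
      omega
    have hcomm := IsPGroup.commutative_of_card_eq_prime_sq (p := 3) hq
      (QuotientGroup.mk (⟨z, hz⟩ : R)) (QuotientGroup.mk (⟨x, hx⟩ : R))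
    rw [← QuotientGroup.mk_mul, ← QuotientGroup.mk_mul, QuotientGroup.eq] at hcomm
    obtain ⟨c, hc⟩ := N1_center_scalar R hirr _ hcomm
    have hw3 := hB _ ((⟨z, hz⟩ * ⟨x, hx⟩ : R)⁻¹ * (⟨x, hx⟩ * ⟨z, hz⟩ : R)).2
    refine ⟨c, N1_cube_of_scalar hw3 hc, ?_⟩
    have e : x * z = (z * x) * ((z * x)⁻¹ * (x * z)) := by group
    have e2 : (((⟨z, hz⟩ * ⟨x, hx⟩ : R)⁻¹ * (⟨x, hx⟩ * ⟨z, hz⟩ : R) : R) : GL (Fin 3) F) =
        (z * x)⁻¹ * (x * z) := rfl
    rw [e2] at hc
    rw [← Units.val_mul, e, Units.val_mul, hc, Units.val_mul]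
    simp
  · -- scalars in R
    intro c hc r hr
    have hsc : ∀ w : Subgroup.center R, ∃ d : F,
        (((w : R) : GL (Fin 3) F) : Matrix (Fin 3) (Fin 3) F) = d • 1 :=
      fun w => N1_center_scalar R hirr w w.2
    choose φ hφ using hsc
    have hinj : Function.Injective φ := by
      intro a b hab
      apply Subtype.ext
      apply Subtype.ext
      apply Units.ext
      rw [hφ a, hφ b, hab]
    have : Finite (Subgroup.center R) := Nat.finite_of_card_ne_zero (by rw [hZ]; norm_num)
    have : Fintype (Subgroup.center R) := Fintype.ofFinite _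
    have hsub : Finset.univ.image φ ⊆ Polynomial.nthRootsFinset 3 (1 : F) := by
      intro d hd
      obtain ⟨w, -, rfl⟩ := Finset.mem_image.1 hd
      rw [Polynomial.mem_nthRootsFinset (by norm_num)]
      exact N1_cube_of_scalar (hB _ (w : R).2) (hφ w)
    have hc1 : (Finset.univ.image φ).card = 3 := by
      rw [Finset.card_image_of_injective _ hinj, Finset.card_univ, ← Nat.card_eq_fintype_card, hZ]
    have hc2 : (Polynomial.nthRootsFinset 3 (1 : F)).card ≤ 3 :=
      (Multiset.toFinset_card_le _).trans (Polynomial.card_nthRoots 3 1)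
    have heq := Finset.eq_of_subset_of_card_le hsub (by rw [hc1]; exact hc2)
    have hmem : c ∈ Finset.univ.image φ := by
      rw [heq, Polynomial.mem_nthRootsFinset (by norm_num)]
      exact hc
    obtain ⟨w, -, rfl⟩ := Finset.mem_image.1 hmem
    refine ⟨((w : R) : GL (Fin 3) F) * r, R.mul_mem (w : R).2 hr, ?_⟩
    rw [Units.val_mul, hφ w]
    simp

end Cfsg.Agent.Lib.Helper23.SUSmall
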