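import Cfsg.Agent.Lib.Helper23.SUSmall.E3dN3a
import Cfsg.Agent.Lib.Helper37.SUSmall.E3dN2

set_option autoImplicit false

/-! # E3dN3 (helper23 for helper13's farm): normal form of `3^(1+2)` in `GU_3(5)` -/

namespace Cfsg.Agent.Lib.Helper23.SUSmall

open Cfsg Cfsg.Geo Matrix Cfsg.Agent.Lib.Helper5.SUAsch Cfsg.Agent.Lib.Helper13.SUSmall
open scoped MatrixGroups

variable {F : Type*} [Field F] [Fintype F]

/-- E3dN3 -/
theorem e3d_normal (hF : Fintype.card F = 5 ^ 2) (R : Subgroup (GL (Fin 3) F))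
    (hR : IsSymplecticTypeGroup 3 R) (hirr : ActsAbsolutelyIrreducibly (matrixSet R))
    (hsim : R ≤ similarityGroup (hermForm 3 F 5)) (hcard : Nat.card R = 27)
    (hZ : Nat.card (Subgroup.center R) = 3) :
    ∃ (T X Z : GL (Fin 3) F) (ω : F), ω ^ 2 + ω + 1 = 0 ∧ T ∈ SUg 3 F 5 ∧
      (X : Matrix (Fin 3) (Fin 3) F) = X3 ∧ (Z : Matrix (Fin 3) (Fin 3) F) = Z3 ω ∧
      R = (Subgroup.closure {X, Z}).map (MulAut.conj T).toMonoidHom :=
  e3d_normal_of (Cfsg.Agent.Lib.Helper37.SUSmall.e3d_linear hF) hF R hR hirr hsim hcard hZ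

end Cfsg.Agent.Lib.Helper23.SUSmall
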