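import Cfsg.Agent.Lib.Helper23.SUSmall.E3dN1

set_option autoImplicit false

/-! # E3dN3, core (helper23 for helper13's farm): normal form of `3^(1+2)` in `GU_3(5)`,
with the linear-algebra piece E3dN2 taken as a hypothesis. -/

namespace Cfsg.Agent.Lib.Helper23.SUSmall

open Cfsg Cfsg.Geo Matrix Cfsg.Agent.Lib.Helper5.SUAsch Cfsg.Agent.Lib.Helper13.SUSmall
open scoped MatrixGroups

variable {F : Type*} [Field F] [Fintype F]

/-- E3dN3 with E3dN2 as a hypothesis -/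
theorem e3d_normal_of
    (hN2 : ∀ (x z : GL (Fin 3) F)
      (_ : x ∈ GU 3 F 5) (_ : z ∈ GU 3 F 5) (_ : ∀ k : ℕ, (x * z ^ k) ^ 3 = 1) (_ : z ^ 3 = 1)
      (c : F) (_ : c ^ 3 = 1) (_ : c ≠ 1)
      (_ : (x : Matrix (Fin 3) (Fin 3) F) * (z : Matrix (Fin 3) (Fin 3) F) =
        c • ((z : Matrix (Fin 3) (Fin 3) F) * (x : Matrix (Fin 3) (Fin 3) F))),
      ∃ (T : GL (Fin 3) F) (k : ℕ) (a ω : F), T ∈ SUg 3 F 5 ∧ a ^ 3 = 1 ∧ ω ^ 2 + ω + 1 = 0 ∧
        ((T⁻¹ * (x * z ^ k) * T : GL (Fin 3) F) : Matrix (Fin 3) (Fin 3) F) = X3 ∧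
        a • ((T⁻¹ * z * T : GL (Fin 3) F) : Matrix (Fin 3) (Fin 3) F) = Z3 ω)
    (hF : Fintype.card F = 5 ^ 2) (R : Subgroup (GL (Fin 3) F))
    (hR : IsSymplecticTypeGroup 3 R) (hirr : ActsAbsolutelyIrreducibly (matrixSet R))
    (hsim : R ≤ similarityGroup (hermForm 3 F 5)) (hcard : Nat.card R = 27)
    (hZ : Nat.card (Subgroup.center R) = 3) :
    ∃ (T X Z : GL (Fin 3) F) (ω : F), ω ^ 2 + ω + 1 = 0 ∧ T ∈ SUg 3 F 5 ∧
      (X : Matrix (Fin 3) (Fin 3) F) = X3 ∧ (Z : Matrix (Fin 3) (Fin 3) F) = Z3 ω ∧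
      R = (Subgroup.closure {X, Z}).map (MulAut.conj T).toMonoidHom := by
  classical
  obtain ⟨hGU, h3, ⟨x, hx, z, hz, hxz⟩, hgen, hcomm, hscal⟩ :=
    e3d_group hF R hR hirr hsim hcard hZ
  obtain ⟨c, hc, hc'⟩ := hcomm x hx z hz
  have hc1 : c ≠ 1 := by
    rintro rfl
    apply hxz
    apply Units.ext
    rw [Units.val_mul, Units.val_mul, hc', one_smul]
  obtain ⟨T, k, a, ω, hT, ha, hω, hX, hZ'⟩ := hN2 x z (hGU hx) (hGU hz)
    (fun k => h3 _ (R.mul_mem hx (R.pow_mem hz k))) (h3 z hz) c hc hc1 hc'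
  obtain ⟨z', hz', hz'm⟩ := hscal a ha z hz
  have hx' : x * z ^ k ∈ R := R.mul_mem hx (R.pow_mem hz k)
  have ha0 : a ≠ 0 := by
    rintro rfl
    simp at ha
  have hne : (x * z ^ k) * z' ≠ z' * (x * z ^ k) := by
    intro h
    apply hxz
    have h1 := congrArg (fun t : GL (Fin 3) F => (t : Matrix (Fin 3) (Fin 3) F)) h
    simp only [Units.val_mul, hz'm, Matrix.mul_smul, Matrix.smul_mul] at h1
    have h2 := smul_right_injective _ ha0 h1
    have h4 : (x * z ^ k) * z = z * (x * z ^ k) := by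
      apply Units.ext
      simpa only [Units.val_mul] using h2
    have h5 : (x * z) * z ^ k = (z * x) * z ^ k := by
      calc (x * z) * z ^ k = (x * z ^ k) * z := by
            rw [mul_assoc, mul_assoc, ← pow_succ', ← pow_succ]
        _ = z * (x * z ^ k) := h4
        _ = (z * x) * z ^ k := by rw [mul_assoc]
    exact mul_right_cancel h5
  have hcl := hgen _ hx' z' hz' hne
  refine ⟨T, T⁻¹ * (x * z ^ k) * T, T⁻¹ * z' * T, ω, hω, hT, hX, ?_, ?_⟩
  · rw [← hZ']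
    simp only [Units.val_mul, hz'm, Matrix.mul_smul, Matrix.smul_mul]
  · rw [MonoidHom.map_closure, Set.image_pair, ← hcl]
    congr 1
    have e1 : (MulAut.conj T).toMonoidHom (T⁻¹ * (x * z ^ k) * T) = x * z ^ k := by
      simp only [MulEquiv.coe_toMonoidHom, MulAut.conj_apply]
      group
    have e2 : (MulAut.conj T).toMonoidHom (T⁻¹ * z' * T) = z' := by
      simp only [MulEquiv.coe_toMonoidHom, MulAut.conj_apply]
      group
    rw [e1, e2]

end Cfsg.Agent.Lib.Helper23.SUSmall
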